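import Cfsg.Agent.Co.CT.Tab

set_option autoImplicit false
set_option maxRecDepth 100000
set_option Elab.async false

namespace Cfsg.Co.CT

open Cfsg.H6

theorem k4 : allR ck 5600 1400 = true := by decide +kernel

theorem k5 : allR ck 7000 1400 = true := by decide +kernel

theorem k6 : allR ck 8400 1400 = true := by decide +kernel

theorem k7 : allR ck 9800 826 = true := by decide +kernel

end Cfsg.Co.CT
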